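import Cfsg.Agent.Lib.Helper2.Sp.Base

set_option autoImplicit false
set_option linter.unusedSectionVars false

/-! # Piece SB: a normalised commutative subalgebra is a field or has a full system of
primitive idempotents -/

namespace Cfsg.Agent.Lib.Helper2.Sp

open Cfsg Cfsg.Geo Matrix Cfsg.Agent.Lib.Helper13.Asch Cfsg.Agent.Lib.Helper90.Sp
open scoped Kronecker MatrixGroups

variable {ι : Type} [Fintype ι] [DecidableEq ι] {F : Type*} [Field F]

theorem exists_idem_pow {M : Type*} [Monoid M] [Finite M] (x : M) :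
    ∃ m, 0 < m ∧ x ^ m * x ^ m = x ^ m := by
  obtain ⟨a, c, hac, h⟩ := Finite.exists_ne_map_eq_of_infinite (fun n : ℕ => x ^ n)
  wlog hlt : a < c generalizing a c
  · exact this c a hac.symm h.symm (by omega)
  obtain ⟨b, rfl⟩ : ∃ b, c = a + b := ⟨c - a, by omega⟩
  have hb : 0 < b := by omega
  have h' : x ^ a = x ^ (a + b) := h
  have h1 : ∀ d, a ≤ d → x ^ (d + b) = x ^ d := by
    intro d hd
    obtain ⟨r, rfl⟩ := Nat.exists_eq_add_of_le hd
    rw [show a + r + b = (a + b) + r by ring, pow_add, ← h', ← pow_add]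
  have h2 : ∀ k d, a ≤ d → x ^ (d + k * b) = x ^ d := by
    intro k
    induction k with
    | zero => intro d _; simp
    | succ k ih =>
      intro d hd
      rw [show d + (k + 1) * b = (d + k * b) + b by ring, h1 _ (by omega), ih d hd]
  refine ⟨(a + 1) * b, by positivity, ?_⟩
  rw [← pow_add]
  exact h2 (a + 1) _ (by nlinarith)

theorem exists_common_kernel [Nonempty ι] (S : Finset (Matrix ι ι F))
    (hcomm : ∀ x ∈ S, ∀ y ∈ S, x * y = y * x) (hnil : ∀ x ∈ S, IsNilpotent x) :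
    ∃ w : ι → F, w ≠ 0 ∧ ∀ y ∈ S, y *ᵥ w = 0 := by
  classical
  induction S using Finset.induction_on with
  | empty =>
    obtain ⟨w, hw⟩ := exists_ne (0 : ι → F)
    exact ⟨w, hw, by simp⟩
  | insert y S hy ih =>
    obtain ⟨w, hw, hS⟩ := ih
      (fun a ha b hb => hcomm a (Finset.mem_insert_of_mem ha) b (Finset.mem_insert_of_mem hb))
      (fun a ha => hnil a (Finset.mem_insert_of_mem ha))
    obtain ⟨n, hn⟩ := hnil y (Finset.mem_insert_self y S)
    have hex : ∃ k, (y ^ k) *ᵥ w = 0 := ⟨n, by rw [hn, Matrix.zero_mulVec]⟩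
    have hk0 : Nat.find hex ≠ 0 := by
      intro h0
      have := Nat.find_spec hex
      rw [h0, pow_zero, Matrix.one_mulVec] at this
      exact hw this
    obtain ⟨m, hm⟩ := Nat.exists_eq_succ_of_ne_zero hk0
    refine ⟨(y ^ m) *ᵥ w, Nat.find_min hex (by omega), ?_⟩
    intro z hz
    rcases Finset.mem_insert.1 hz with rfl | hz'
    · rw [Matrix.mulVec_mulVec, ← pow_succ', ← Nat.succ_eq_add_one, ← hm]
      exact Nat.find_spec hex
    · have hc : z * y ^ m = y ^ m * z :=
        (Commute.pow_right (hcomm z hz y (Finset.mem_insert_self y S)) m).eq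
      rw [Matrix.mulVec_mulVec, hc, ← Matrix.mulVec_mulVec, hS z hz', Matrix.mulVec_zero]

theorem eq_zero_of_nilpotent [Finite F] [Nonempty ι] (H : Subgroup (GL ι F))
    (hirr : ActsIrreducibly (matrixSet H))
    (Z : Subalgebra F (Matrix ι ι F)) (hZ : H ≤ subalgebraNormalizer Z)
    (hcomm : ∀ x ∈ Z, ∀ y ∈ Z, x * y = y * x) {x : Matrix ι ι F} (hx : x ∈ Z)
    (hnil : IsNilpotent x) : x = 0 := by
  classical
  haveI := Fintype.ofFinite F
  let S : Finset (Matrix ι ι F) := Finset.univ.filter (fun y => y ∈ Z ∧ IsNilpotent y)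
  have hSm : ∀ y, y ∈ S ↔ y ∈ Z ∧ IsNilpotent y := by simp [S]
  obtain ⟨w, hw, hS⟩ := exists_common_kernel S
    (fun a ha b hb => hcomm a ((hSm a).1 ha).1 b ((hSm b).1 hb).1) (fun a ha => ((hSm a).1 ha).2)
  let U : Submodule F (ι → F) := ⨅ y ∈ S, LinearMap.ker (Matrix.toLin' y)
  have hU : ∀ v, v ∈ U ↔ ∀ y ∈ S, y *ᵥ v = 0 := by
    intro v
    simp [U, Submodule.mem_iInf]
  have hinv : ∀ s ∈ matrixSet H, U.map (Matrix.toLin' s) ≤ U := by
    apply inv_of_mulVec_mem
    intro g hg v hv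
    rw [hU] at hv ⊢
    intro y hy
    have hy' := (hSm y).1 hy
    have h1 : ((g⁻¹ : GL ι F) : Matrix ι ι F) * y * (g : Matrix ι ι F) ∈ S := by
      rw [hSm]
      constructor
      · have := (hZ (H.inv_mem hg) y).1 hy'.1
        rwa [inv_inv] at this
      · obtain ⟨n, hn⟩ := hy'.2
        exact ⟨n, by rw [Units.conj_pow', hn]; simp⟩
    have h2 := hv _ h1
    have h3 : y *ᵥ ((g : Matrix ι ι F) *ᵥ v) = (g : Matrix ι ι F) *ᵥ
        ((((g⁻¹ : GL ι F) : Matrix ι ι F) * y * (g : Matrix ι ι F)) *ᵥ v) := by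
      rw [Matrix.mulVec_mulVec, Matrix.mulVec_mulVec, ← mul_assoc, ← mul_assoc, ← Units.val_mul,
        mul_inv_cancel, Units.val_one, one_mul]
    rw [h3, h2, Matrix.mulVec_zero]
  rcases hirr U hinv with h | h
  · have : w ∈ U := (hU w).2 hS
    rw [h, Submodule.mem_bot] at this
    exact absurd this hw
  · have hxS : x ∈ S := (hSm x).2 ⟨hx, hnil⟩
    apply Matrix.toLin'.injective
    apply LinearMap.ext
    intro v
    have : v ∈ U := by rw [h]; trivial
    simpa using (hU v).1 this x hxS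

theorem exists_prim_le [Finite F] (Z : Subalgebra F (Matrix ι ι F))
    (hcomm : ∀ x ∈ Z, ∀ y ∈ Z, x * y = y * x)
    {x : Matrix ι ι F} (hx : x ∈ Z) (hxx : x * x = x) (hx0 : x ≠ 0) :
    ∃ p, IsPrimIdem Z p ∧ x * p = p := by
  classical
  haveI := Fintype.ofFinite F
  let μ : Matrix ι ι F → ℕ :=
    fun y => (Finset.univ.filter (fun w : Matrix ι ι F => y * w = w)).card
  have hμ : ∀ y z, y ∈ Z → z ∈ Z → y * y = y → y * z = z → z ≠ y → μ z < μ y := by
    intro y z hy hz hyy hyz hne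
    apply Finset.card_lt_card
    rw [Finset.ssubset_iff_of_subset]
    · refine ⟨y, by simp [hyy], ?_⟩
      simp only [Finset.mem_filter, Finset.mem_univ, true_and]
      intro h
      apply hne
      rw [← hyz, hcomm y hy z hz, h]
    · intro w hw
      simp only [Finset.mem_filter, Finset.mem_univ, true_and] at hw ⊢
      rw [← hw, ← mul_assoc, hyz]
  let T : Set (Matrix ι ι F) := {y | y ∈ Z ∧ y * y = y ∧ y ≠ 0 ∧ x * y = y}
  obtain ⟨p, ⟨hpZ, hpp, hp0, hxp⟩, hmin⟩ :=
    Set.exists_min_image T μ (Set.toFinite T) ⟨x, hx, hxx, hx0, hxx⟩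
  refine ⟨p, ⟨hpZ, hpp, hp0, ?_⟩, hxp⟩
  intro y hy hyy hpy
  by_contra hcon
  push Not at hcon
  have hyT : y ∈ T := ⟨hy, hyy, hcon.1, by rw [← hpy, ← mul_assoc, hxp]⟩
  exact absurd (hmin y hyT) (not_le.2 (hμ p y hpZ hy hpp hpy hcon.2))

/-- SB -/
theorem exists_idempotents [Finite F] (H : Subgroup (GL ι F)) (hirr : ActsIrreducibly (matrixSet H))
    (Z : Subalgebra F (Matrix ι ι F)) (hZ : H ≤ subalgebraNormalizer Z)
    (hcomm : ∀ x ∈ Z, ∀ y ∈ Z, x * y = y * x) :
    (∀ x ∈ Z, x ≠ 0 → ∃ y ∈ Z, x * y = 1) ∨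
    ∃ (t : ℕ) (e : Fin t → Matrix ι ι F), 2 ≤ t ∧ Function.Injective e ∧
      (∀ i, IsPrimIdem Z (e i)) ∧ (∀ x, IsPrimIdem Z x → ∃ i, x = e i) ∧
      (∀ i j, i ≠ j → e i * e j = 0) ∧ ∑ i, e i = 1 := by
  classical
  haveI := Fintype.ofFinite F
  rcases isEmpty_or_nonempty ι with hι | hι
  · left
    intro x _ hx
    exact absurd (Subsingleton.elim x 0) hx
  let E : Finset (Matrix ι ι F) := Finset.univ.filter (fun x => IsPrimIdem Z x)
  have hE : ∀ x, x ∈ E ↔ IsPrimIdem Z x := by simp [E]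
  have horth : ∀ x y, IsPrimIdem Z x → IsPrimIdem Z y → x ≠ y → x * y = 0 := by
    intro x y hx hy hne
    obtain ⟨hxZ, hxx, hx0, hxp⟩ := hx
    obtain ⟨hyZ, hyy, hy0, hyp⟩ := hy
    have hxy : x * y ∈ Z := Z.mul_mem hxZ hyZ
    have hc := hcomm x hxZ y hyZ
    have hid : (x * y) * (x * y) = x * y := by
      calc (x * y) * (x * y) = x * (y * x) * y := by simp only [mul_assoc]
        _ = x * (x * y) * y := by rw [hc]
        _ = (x * x) * (y * y) := by simp only [mul_assoc]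
        _ = x * y := by rw [hxx, hyy]
    have h1 := hxp (x * y) hxy hid (by rw [← mul_assoc, hxx])
    have h2 := hyp (x * y) hxy hid (by rw [hc, ← mul_assoc, hyy])
    rcases h1 with h1 | h1
    · exact h1
    · rcases h2 with h2 | h2
      · exact h2
      · exact absurd (h1.symm.trans h2) hne
  obtain ⟨s, hs⟩ : ∃ s, s = ∑ x ∈ E, x := ⟨_, rfl⟩
  have hsZ : s ∈ Z := by
    rw [hs]
    exact Subalgebra.sum_mem _ (fun x hx => ((hE x).1 hx).1)
  have hsx : ∀ x ∈ E, s * x = x := by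
    intro x hx
    rw [hs, Finset.sum_mul, Finset.sum_eq_single x]
    · exact ((hE x).1 hx).2.1
    · intro b hb hbx
      exact horth b x ((hE b).1 hb) ((hE x).1 hx) hbx
    · intro h
      exact absurd hx h
  have hss : s * s = s := by
    calc s * s = s * ∑ x ∈ E, x := by rw [← hs]
      _ = ∑ x ∈ E, s * x := by rw [Finset.mul_sum]
      _ = ∑ x ∈ E, x := Finset.sum_congr rfl hsx
      _ = s := hs.symm
  have hs1 : s = 1 := by
    by_contra hne
    have h1 : (1 - s) ∈ Z := Z.sub_mem Z.one_mem hsZ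
    have h2 : (1 - s) * (1 - s) = 1 - s := by
      rw [sub_mul, mul_sub, mul_sub, hss]; simp
    have h3 : (1 - s) ≠ 0 := fun h => hne (sub_eq_zero.1 h).symm
    obtain ⟨p, hp, hpp⟩ := exists_prim_le Z hcomm h1 h2 h3
    have := hsx p ((hE p).2 hp)
    rw [sub_mul, one_mul, this, sub_self] at hpp
    exact hp.2.2.1 hpp.symm
  by_cases hcard : 2 ≤ E.card
  · right
    refine ⟨E.card, fun i => ((E.equivFin.symm i : E) : Matrix ι ι F), hcard, ?_, ?_, ?_, ?_, ?_⟩
    · intro i j hij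
      exact E.equivFin.symm.injective (Subtype.ext hij)
    · intro i
      exact (hE _).1 (E.equivFin.symm i).2
    · intro x hx
      exact ⟨E.equivFin ⟨x, (hE x).2 hx⟩, by simp⟩
    · intro i j hij
      exact horth _ _ ((hE _).1 (E.equivFin.symm i).2) ((hE _).1 (E.equivFin.symm j).2)
        (fun h => hij (E.equivFin.symm.injective (Subtype.ext h)))
    · rw [← hs1, hs, ← Finset.sum_coe_sort E]
      exact Equiv.sum_comp E.equivFin.symm (fun x : E => (x : Matrix ι ι F))
  · left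
    have h1p : IsPrimIdem Z 1 := by
      have hne : E.Nonempty := by
        rw [Finset.nonempty_iff_ne_empty]
        intro h
        rw [hs, h, Finset.sum_empty] at hs1
        exact zero_ne_one hs1
      obtain ⟨p, hp⟩ := hne
      have hEp : E = {p} := by
        apply Finset.eq_singleton_iff_unique_mem.2 ⟨hp, fun q hq => ?_⟩
        exact Finset.card_le_one.1 (by omega) q hq p hp
      have : s = p := by rw [hs, hEp, Finset.sum_singleton]
      rw [← hs1, this]
      exact (hE p).1 hp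
    intro x hx hx0
    obtain ⟨m, hm, hidem⟩ := exists_idem_pow x
    have hxm : x ^ m ∈ Z := Z.pow_mem hx m
    rcases h1p.2.2.2 (x ^ m) hxm hidem (one_mul _) with h | h
    · exact absurd (eq_zero_of_nilpotent H hirr Z hZ hcomm hx ⟨m, h⟩) hx0
    · obtain ⟨k, rfl⟩ : ∃ k, m = k + 1 := ⟨m - 1, by omega⟩
      exact ⟨x ^ k, Z.pow_mem hx k, by rw [← pow_succ', h]⟩

end Cfsg.Agent.Lib.Helper2.Sp
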