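import Cfsg.Agent.Lib.Helper90.Sp.Defs
import Cfsg.Agent.Lib.Helper58.Asch.L0a

set_option autoImplicit false
set_option linter.unusedSectionVars false

/-! # Symplectic Aschbacher campaign: basic tools on forms, perps and pairs of subspaces -/

namespace Cfsg.Agent.Lib.Helper2.Sp

open Cfsg Cfsg.Geo Matrix Cfsg.Agent.Lib.Helper13.Asch Cfsg.Agent.Lib.Helper90.Sp
open scoped Kronecker MatrixGroups

variable {ι : Type} [Fintype ι] [DecidableEq ι] {F : Type*} [Field F]

/-- a bilinear function as a Mathlib bilinear form -/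
def bil {f : (ι → F) → (ι → F) → F} (hf : IsBilinearForm f) : LinearMap.BilinForm F (ι → F) :=
  LinearMap.mk₂ F f hf.add_left hf.smul_left hf.add_right hf.smul_right

theorem bil_apply {f : (ι → F) → (ι → F) → F} (hf : IsBilinearForm f) (u v : ι → F) :
    bil hf u v = f u v := rfl

/-- `{v | ∀ w ∈ W, f w v = 0}` -/
def perp {f : (ι → F) → (ι → F) → F} (hf : IsBilinearForm f) (W : Submodule F (ι → F)) :
    Submodule F (ι → F) := (bil hf).orthogonal W

theorem mem_perp {f : (ι → F) → (ι → F) → F} (hf : IsBilinearForm f) {W : Submodule F (ι → F)}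
    {v : ι → F} : v ∈ perp hf W ↔ ∀ w ∈ W, f w v = 0 := by
  unfold perp
  rw [LinearMap.BilinForm.mem_orthogonal_iff]
  rfl

theorem finrank_add_perp {f : (ι → F) → (ι → F) → F} (hf : IsSymplecticForm f)
    (W : Submodule F (ι → F)) :
    Module.finrank F W + Module.finrank F (perp hf.bilinear W) = Fintype.card ι := by
  have h := LinearMap.BilinForm.finrank_add_finrank_orthogonal' (B := bil hf.bilinear) W
  have hker : LinearMap.ker (bil hf.bilinear) = ⊥ := by
    rw [LinearMap.ker_eq_bot']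
    intro v hv
    by_contra hne
    obtain ⟨x, hx⟩ := (hf.nondegenerate v hne).2
    apply hx
    have := congrArg (fun φ => φ x) hv
    simpa [bil_apply] using this
  rw [hker, inf_bot_eq, finrank_bot, add_zero, Module.finrank_fintype_fun_eq_card] at h
  exact h

theorem f_zero_left {f : (ι → F) → (ι → F) → F} (hf : IsBilinearForm f) (v : ι → F) : f 0 v = 0 := by
  have := hf.smul_left 0 0 v
  simpa using this

theorem f_zero_right {f : (ι → F) → (ι → F) → F} (hf : IsBilinearForm f) (v : ι → F) : f v 0 = 0 := by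
  have := hf.smul_right 0 v 0
  simpa using this

theorem f_neg_left {f : (ι → F) → (ι → F) → F} (hf : IsBilinearForm f) (u v : ι → F) :
    f (-u) v = - f u v := by
  have := hf.smul_left (-1) u v
  simpa using this

theorem f_sub_left {f : (ι → F) → (ι → F) → F} (hf : IsBilinearForm f) (u u' v : ι → F) :
    f (u - u') v = f u v - f u' v := by
  rw [sub_eq_add_neg, hf.add_left, f_neg_left hf, sub_eq_add_neg]

theorem f_neg_right {f : (ι → F) → (ι → F) → F} (hf : IsBilinearForm f) (u v : ι → F) :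
    f u (-v) = - f u v := by
  have := hf.smul_right (-1) u v
  simpa using this

theorem f_sub_right {f : (ι → F) → (ι → F) → F} (hf : IsBilinearForm f) (u v v' : ι → F) :
    f u (v - v') = f u v - f u v' := by
  rw [sub_eq_add_neg, hf.add_right, f_neg_right hf, sub_eq_add_neg]

theorem gl_inv_mulVec (g : GL ι F) (v : ι → F) :
    ((g⁻¹ : GL ι F) : Matrix ι ι F) *ᵥ ((g : Matrix ι ι F) *ᵥ v) = v := by
  rw [Matrix.mulVec_mulVec, ← Units.val_mul, inv_mul_cancel, Units.val_one, Matrix.one_mulVec]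

theorem gl_mulVec_inv (g : GL ι F) (v : ι → F) :
    (g : Matrix ι ι F) *ᵥ (((g⁻¹ : GL ι F) : Matrix ι ι F) *ᵥ v) = v := by
  rw [Matrix.mulVec_mulVec, ← Units.val_mul, mul_inv_cancel, Units.val_one, Matrix.one_mulVec]

/-- invariance in elementwise form -/
theorem mulVec_mem_of_inv {H : Subgroup (GL ι F)} {W : Submodule F (ι → F)}
    (h : ∀ s ∈ matrixSet H, W.map (Matrix.toLin' s) ≤ W) {g : GL ι F} (hg : g ∈ H) {v : ι → F}
    (hv : v ∈ W) : (g : Matrix ι ι F) *ᵥ v ∈ W := by
  have := h (g : Matrix ι ι F) ⟨g, hg, rfl⟩ (Submodule.mem_map_of_mem hv)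
  simpa using this

theorem inv_of_mulVec_mem {H : Subgroup (GL ι F)} {W : Submodule F (ι → F)}
    (h : ∀ g ∈ H, ∀ v ∈ W, (g : Matrix ι ι F) *ᵥ v ∈ W) :
    ∀ s ∈ matrixSet H, W.map (Matrix.toLin' s) ≤ W := by
  rintro _ ⟨g, hg, rfl⟩ _ ⟨v, hv, rfl⟩
  simpa using h g hg v hv

theorem map_eq_of_inv {H : Subgroup (GL ι F)} {W : Submodule F (ι → F)}
    (h : ∀ s ∈ matrixSet H, W.map (Matrix.toLin' s) ≤ W) {g : GL ι F} (hg : g ∈ H) :
    W.map (Matrix.toLin' (g : Matrix ι ι F)) = W := by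
  refine le_antisymm (h _ ⟨g, hg, rfl⟩) fun w hw => ?_
  refine ⟨((g⁻¹ : GL ι F) : Matrix ι ι F) *ᵥ w, mulVec_mem_of_inv h (H.inv_mem hg) hw, ?_⟩
  simp [gl_mulVec_inv]

theorem fixes_apply {f : (ι → F) → (ι → F) → F} {H : Subgroup (GL ι F)}
    (hH : FixesForm (matrixSet H) f) {g : GL ι F} (hg : g ∈ H) (u v : ι → F) :
    f ((g : Matrix ι ι F) *ᵥ u) ((g : Matrix ι ι F) *ᵥ v) = f u v :=
  hH _ ⟨g, hg, rfl⟩ u v

/-- `f (w, g v) = f (g⁻¹ w, v)` -/
theorem fixes_adj {f : (ι → F) → (ι → F) → F} {H : Subgroup (GL ι F)}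
    (hH : FixesForm (matrixSet H) f) {g : GL ι F} (hg : g ∈ H) (u v : ι → F) :
    f u ((g : Matrix ι ι F) *ᵥ v) = f (((g⁻¹ : GL ι F) : Matrix ι ι F) *ᵥ u) v := by
  conv_lhs => rw [← gl_mulVec_inv g u]
  exact fixes_apply hH hg _ _

theorem perp_inv {f : (ι → F) → (ι → F) → F} (hf : IsBilinearForm f) {H : Subgroup (GL ι F)}
    (hH : FixesForm (matrixSet H) f) {W : Submodule F (ι → F)}
    (h : ∀ s ∈ matrixSet H, W.map (Matrix.toLin' s) ≤ W) :
    ∀ s ∈ matrixSet H, (perp hf W).map (Matrix.toLin' s) ≤ perp hf W := by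
  apply inv_of_mulVec_mem
  intro g hg v hv
  rw [mem_perp] at hv ⊢
  intro w hw
  rw [fixes_adj hH hg]
  exact hv _ (mulVec_mem_of_inv h (H.inv_mem hg) hw)

/-- a complementary pair of subspaces of the same dimension is a decomposition -/
theorem isMDecomposition_pair {W P : Submodule F (ι → F)} {k : ℕ} (hk : 0 < k)
    (hd : Disjoint W P) (hs : W ⊔ P = ⊤) (hW : Module.finrank F W = k)
    (hP : Module.finrank F P = k) : IsMDecomposition k ![W, P] where
  two_le := le_refl 2
  pos := hk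
  finrank_eq := by
    intro i
    fin_cases i
    · exact hW
    · exact hP
  indep := by
    rw [iSupIndep_pair (i := (0 : Fin 2)) (j := 1) (by decide) (by intro k; fin_cases k <;> simp)]
    exact hd
  iSup_eq_top := by
    rw [eq_top_iff, ← hs]
    exact sup_le (le_iSup (![W, P]) 0) (le_iSup (![W, P]) 1)

theorem sup_eq_top_of_finrank {W P : Submodule F (ι → F)} (hd : W ⊓ P = ⊥)
    (h : Module.finrank F W + Module.finrank F P = Fintype.card ι) : W ⊔ P = ⊤ := by
  apply Submodule.eq_top_of_finrank_eq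
  have := Submodule.finrank_sup_add_finrank_inf_eq W P
  rw [hd, finrank_bot, add_zero] at this
  rw [this, h, Module.finrank_fintype_fun_eq_card]

end Cfsg.Agent.Lib.Helper2.Sp
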