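import Cfsg.Agent.Lib.Helper2.Sp.Base

set_option autoImplicit false
set_option linter.unusedSectionVars false

/-! # Piece SA: a reducible subgroup of Sp lies in class 1 or 2 -/

namespace Cfsg.Agent.Lib.Helper2.Sp

open Cfsg Cfsg.Geo Matrix Cfsg.Agent.Lib.Helper13.Asch Cfsg.Agent.Lib.Helper90.Sp
open scoped Kronecker MatrixGroups

variable {ι : Type} [Fintype ι] [DecidableEq ι] {F : Type*} [Field F]

/-- SA -/
theorem sp_reducible [Fintype F] {f : (ι → F) → (ι → F) → F} (hf : IsSymplecticForm f)
    {H : Subgroup (GL ι F)} (hH : FixesForm (matrixSet H) f)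
    (hred : ¬ ActsIrreducibly (matrixSet H)) : SpCls f H := by
  unfold ActsIrreducibly at hred
  push Not at hred
  obtain ⟨W, hW, hW0, hW1⟩ := hred
  set P := perp hf.bilinear W with hP
  have hPinv : ∀ s ∈ matrixSet H, P.map (Matrix.toLin' s) ≤ P := perp_inv hf.bilinear hH hW
  have hdim := finrank_add_perp hf W
  rw [← hP] at hdim
  by_cases hR : W ⊓ P = ⊥
  · -- nondegenerate case
    have hsup : W ⊔ P = ⊤ := sup_eq_top_of_finrank hR hdim
    have hWnd : IsNondegenerateOn f W := by
      intro w hw hw0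
      have h1 : w ∉ P := by
        intro hwP
        apply hw0
        have : w ∈ W ⊓ P := ⟨hw, hwP⟩
        rw [hR] at this
        simpa using this
      rw [hP, mem_perp] at h1
      push Not at h1
      obtain ⟨x, hx, hxw⟩ := h1
      refine ⟨⟨x, hx, hxw⟩, ⟨x, hx, ?_⟩⟩
      rw [hf.skew]
      exact neg_ne_zero.2 hxw
    have hPnd : IsNondegenerateOn f P := by
      intro w hw hw0
      obtain ⟨y, hy⟩ := (hf.nondegenerate w hw0).1
      have hy' : y ∈ W ⊔ P := by rw [hsup]; trivial
      obtain ⟨y1, hy1, y2, hy2, rfl⟩ := Submodule.mem_sup.1 hy'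
      have h0 : f y1 w = 0 := (mem_perp hf.bilinear).1 hw y1 hy1
      rw [hf.bilinear.add_left, h0, zero_add] at hy
      refine ⟨⟨y2, hy2, hy⟩, ⟨y2, hy2, ?_⟩⟩
      rw [hf.skew]
      exact neg_ne_zero.2 hy
    have hWpos : 0 < Module.finrank F W := Module.finrank_pos_iff_exists_ne_zero.2 (by
      obtain ⟨w, hw, hw0⟩ := (Submodule.ne_bot_iff W).1 hW0
      exact ⟨⟨w, hw⟩, fun h => hw0 (congrArg Subtype.val h)⟩)
    rcases lt_trichotomy (2 * Module.finrank F W) (Fintype.card ι) with hlt | heq | hgt
    · right; left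
      exact ⟨W, hW0, hWnd, hlt, Helper58.Asch.le_subspaceStabilizer hW⟩
    · right; right; left
      refine ⟨2, Module.finrank F W, ![W, P], ⟨?_, ?_, ?_⟩, ?_⟩
      · exact isMDecomposition_pair hWpos (disjoint_iff.2 hR) hsup rfl (by omega)
      · intro i
        fin_cases i
        · exact hWnd
        · exact hPnd
      · intro i j hij u hu v hv
        fin_cases i <;> fin_cases j
        · exact absurd rfl hij
        · exact (mem_perp hf.bilinear).1 hv u hu
        · rw [hf.skew, (mem_perp hf.bilinear).1 hu v hv, neg_zero]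
        · exact absurd rfl hij
      · intro g hg
        refine ⟨1, fun i => ?_⟩
        fin_cases i
        · exact map_eq_of_inv hW hg
        · exact map_eq_of_inv hPinv hg
    · right; left
      refine ⟨P, ?_, hPnd, by omega, Helper58.Asch.le_subspaceStabilizer hPinv⟩
      intro hPbot
      rw [hPbot, sup_bot_eq] at hsup
      exact hW1 hsup
  · left
    refine ⟨W ⊓ P, hR, ?_, ?_⟩
    · intro u hu v hv
      exact (mem_perp hf.bilinear).1 hv.2 u hu.1
    · apply Helper58.Asch.le_subspaceStabilizer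
      apply inv_of_mulVec_mem
      intro g hg v hv
      exact ⟨mulVec_mem_of_inv hW hg hv.1, mulVec_mem_of_inv hPinv hg hv.2⟩

end Cfsg.Agent.Lib.Helper2.Sp
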