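import Cfsg.Agent.Lib.Helper2.Sp.SCb
import Cfsg.Agent.Lib.Helper73.Asch.L2a

set_option autoImplicit false
set_option linter.unusedSectionVars false

/-! # Piece SCa: self-adjoint orthogonal idempotents give a non-degenerate decomposition -/

namespace Cfsg.Agent.Lib.Helper2.Sp

open Cfsg Cfsg.Geo Matrix Cfsg.Agent.Lib.Helper13.Asch Cfsg.Agent.Lib.Helper90.Sp
open scoped Kronecker MatrixGroups

variable {ι : Type} [Fintype ι] [DecidableEq ι] {F : Type*} [Field F]

theorem range_ne_bot {e : Matrix ι ι F} (h : e ≠ 0) : LinearMap.range (Matrix.toLin' e) ≠ ⊥ := by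
  intro hb
  apply h
  rw [LinearMap.range_eq_bot] at hb
  have := congrArg LinearMap.toMatrix' hb
  simpa using this

/-- SCa -/
theorem sp_of_selfadjoint_idempotents {f : (ι → F) → (ι → F) → F}
    (hf : IsSymplecticForm f) {H : Subgroup (GL ι F)} (hH : FixesForm (matrixSet H) f)
    (hirr : ActsIrreducibly (matrixSet H)) {t : ℕ} (ht : 2 ≤ t) (e : Fin t → Matrix ι ι F)
    (hinj : Function.Injective e) (hidem : ∀ i, e i * e i = e i) (hne : ∀ i, e i ≠ 0)
    (horth : ∀ i j, i ≠ j → e i * e j = 0) (hsum : ∑ i, e i = 1)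
    (hperm : ∀ h ∈ H, ∀ i, ∃ j,
      (h : Matrix ι ι F) * e i * ((h⁻¹ : GL ι F) : Matrix ι ι F) = e j)
    (hsa : ∀ i u v, f (e i *ᵥ u) v = f u (e i *ᵥ v)) :
    ∃ (k : ℕ) (D : Fin t → Submodule F (ι → F)), IsNondegenerateMDecomposition f k D ∧
      H ≤ decompositionStabilizer D ∧ ∀ i, D i = LinearMap.range (Matrix.toLin' (e i)) := by
  have hb := hf.bilinear
  set D : Fin t → Submodule F (ι → F) := fun i => LinearMap.range (Matrix.toLin' (e i)) with hD
  have hmem : ∀ i v, v ∈ D i ↔ e i *ᵥ v = v := fun i v => mem_range_idem (hidem i)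
  have hDne : ∀ i, D i ≠ ⊥ := fun i => range_ne_bot (hne i)
  have htop : iSup D = ⊤ := by
    rw [eq_top_iff]
    intro v _
    have : v = ∑ i, e i *ᵥ v := by rw [← Matrix.sum_mulVec, hsum, Matrix.one_mulVec]
    rw [this]
    exact Submodule.sum_mem _ fun i _ => (le_iSup D i) ⟨v, rfl⟩
  have hind : iSupIndep D := by
    intro i
    rw [disjoint_iff, eq_bot_iff]
    rintro v ⟨h1, h2⟩
    have hle : (⨆ j, ⨆ (_ : j ≠ i), D j) ≤ LinearMap.ker (Matrix.toLin' (e i)) := by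
      refine iSup₂_le fun j hj => ?_
      rintro _ ⟨w, rfl⟩
      rw [LinearMap.mem_ker]
      simp only [Matrix.toLin'_apply]
      rw [Matrix.mulVec_mulVec, horth i j (Ne.symm hj), Matrix.zero_mulVec]
    have h3 := hle h2
    rw [LinearMap.mem_ker, Matrix.toLin'_apply, (hmem i v).1 h1] at h3
    exact h3
  have hstab : ∀ g ∈ H, ∃ σ : Equiv.Perm (Fin t), ∀ i,
      (g : Matrix ι ι F) * e i * ((g⁻¹ : GL ι F) : Matrix ι ι F) = e (σ i) := by
    intro g hg
    choose σ hσ using hperm g hg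
    have hσi : Function.Injective σ := by
      intro i j hij
      apply hinj
      have h1 := hσ i
      rw [hij, ← hσ j] at h1
      have h2 := congrArg (fun M => ((g⁻¹ : GL ι F) : Matrix ι ι F) * M * (g : Matrix ι ι F)) h1
      have key : ∀ M : Matrix ι ι F, ((g⁻¹ : GL ι F) : Matrix ι ι F) *
          ((g : Matrix ι ι F) * M * ((g⁻¹ : GL ι F) : Matrix ι ι F)) * (g : Matrix ι ι F) = M := by
        intro M
        calc _ = (((g⁻¹ : GL ι F) : Matrix ι ι F) * (g : Matrix ι ι F)) * M *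
              (((g⁻¹ : GL ι F) : Matrix ι ι F) * (g : Matrix ι ι F)) := by
              simp only [mul_assoc]
          _ = M := by rw [← Units.val_mul, inv_mul_cancel, Units.val_one, one_mul, mul_one]
      rwa [key, key] at h2
    exact ⟨Equiv.ofBijective σ (Finite.injective_iff_bijective.1 hσi), hσ⟩
  have hmap : ∀ g ∈ H, ∃ σ : Equiv.Perm (Fin t), ∀ i,
      (D i).map (Matrix.toLin' (g : Matrix ι ι F)) = D (σ i) := by
    intro g hg
    obtain ⟨σ, hσ⟩ := hstab g hg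
    exact ⟨σ, fun i => map_range_conj g _ _ (hσ i)⟩
  let i0 : Fin t := ⟨0, by omega⟩
  set O : Set (Fin t) := {j | ∃ g ∈ H, (D i0).map (Matrix.toLin' (g : Matrix ι ι F)) = D j} with hO
  have hi0 : i0 ∈ O := ⟨1, H.one_mem, by simp⟩
  have hOtop : (⨆ j ∈ O, D j) = ⊤ := by
    have hinv : ∀ s ∈ matrixSet H, (⨆ j ∈ O, D j).map (Matrix.toLin' s) ≤ ⨆ j ∈ O, D j := by
      rintro _ ⟨g, hg, rfl⟩
      rw [Submodule.map_iSup]
      refine iSup_le fun j => ?_
      rw [Submodule.map_iSup]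
      refine iSup_le fun hj => ?_
      obtain ⟨σ, hσ⟩ := hmap g hg
      rw [hσ j]
      obtain ⟨h, hh, hhj⟩ := hj
      refine le_iSup₂ (f := fun j (_ : j ∈ O) => D j) (σ j) ⟨g * h, H.mul_mem hg hh, ?_⟩
      rw [Units.val_mul, Matrix.toLin'_mul, Submodule.map_comp, hhj, hσ j]
    rcases hirr _ hinv with h | h
    · exact absurd (le_bot_iff.1 (h ▸ le_iSup₂ (f := fun j (_ : j ∈ O) => D j) i0 hi0)) (hDne i0)
    · exact h
  have hall : ∀ j, j ∈ O := by
    intro j
    by_contra hj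
    have hle : (⨆ j' ∈ O, D j') ≤ ⨆ j', ⨆ (_ : j' ≠ j), D j' := by
      refine iSup₂_le fun j' hj' => ?_
      exact le_iSup₂ (f := fun j' (_ : j' ≠ j) => D j') j' (fun h => hj (h ▸ hj'))
    rw [hOtop, top_le_iff] at hle
    have := hind j
    rw [hle] at this
    exact hDne j (disjoint_top.1 this)
  refine ⟨Module.finrank F (D i0), D, ⟨⟨ht, ?_, ?_, hind, htop⟩, ?_, ?_⟩, ?_, fun i => rfl⟩
  · exact Module.finrank_pos_iff.2 (Submodule.nontrivial_iff_ne_bot.2 (hDne i0))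
  · intro j
    obtain ⟨g, hg, hgj⟩ := hall j
    rw [← hgj]
    exact (LinearEquiv.finrank_eq
      (Submodule.equivMapOfInjective _ (Cfsg.Agent.Lib.Helper73.Asch.toLin'_gl_injective g) (D i0))).symm
  · intro i w hw hw0
    have hw' := (hmem i w).1 hw
    obtain ⟨⟨x, hx⟩, ⟨y, hy⟩⟩ := hf.nondegenerate w hw0
    refine ⟨⟨e i *ᵥ x, ⟨x, rfl⟩, ?_⟩, ⟨e i *ᵥ y, ⟨y, rfl⟩, ?_⟩⟩
    · rw [hsa, hw']; exact hx
    · rw [← hsa, hw']; exact hy
  · rintro i j hij _ ⟨u, rfl⟩ _ ⟨v, rfl⟩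
    simp only [Matrix.toLin'_apply]
    rw [hsa, Matrix.mulVec_mulVec, horth i j hij, Matrix.zero_mulVec, f_zero_right hb]
  · intro g hg
    exact hmap g hg

end Cfsg.Agent.Lib.Helper2.Sp
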