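import Cfsg.Agent.Lib.Helper2.Sp.Base

set_option autoImplicit false
set_option linter.unusedSectionVars false

/-! # Piece SCb: an idempotent with adjoint `1 - e` -/

namespace Cfsg.Agent.Lib.Helper2.Sp

open Cfsg Cfsg.Geo Matrix Cfsg.Agent.Lib.Helper13.Asch Cfsg.Agent.Lib.Helper90.Sp
open scoped Kronecker MatrixGroups

variable {ι : Type} [Fintype ι] [DecidableEq ι] {F : Type*} [Field F]

theorem mem_range_idem {e : Matrix ι ι F} (hidem : e * e = e) {v : ι → F} :
    v ∈ LinearMap.range (Matrix.toLin' e) ↔ e *ᵥ v = v := by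
  constructor
  · rintro ⟨w, rfl⟩
    rw [Matrix.toLin'_apply, Matrix.mulVec_mulVec, hidem]
  · intro h
    exact ⟨v, by rw [Matrix.toLin'_apply, h]⟩

/-- a totally singular subspace has dimension at most half -/
theorem two_mul_finrank_le {f : (ι → F) → (ι → F) → F} (hf : IsSymplecticForm f)
    {W : Submodule F (ι → F)} (hW : IsTotallySingularFor f W) :
    2 * Module.finrank F W ≤ Fintype.card ι := by
  have h1 : W ≤ perp hf.bilinear W := fun v hv => (mem_perp hf.bilinear).2 fun w hw => hW w hw v hv
  have h2 := Submodule.finrank_mono h1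
  have h3 := finrank_add_perp hf W
  omega

theorem map_range_conj (g : GL ι F) (e e' : Matrix ι ι F)
    (h : (g : Matrix ι ι F) * e * ((g⁻¹ : GL ι F) : Matrix ι ι F) = e') :
    (LinearMap.range (Matrix.toLin' e)).map (Matrix.toLin' (g : Matrix ι ι F)) =
      LinearMap.range (Matrix.toLin' e') := by
  apply le_antisymm
  · rintro _ ⟨_, ⟨w, rfl⟩, rfl⟩
    refine ⟨(g : Matrix ι ι F) *ᵥ w, ?_⟩
    rw [← h]
    simp only [Matrix.toLin'_apply, Matrix.mulVec_mulVec]
    congr 1
    rw [mul_assoc, mul_assoc, ← Units.val_mul, inv_mul_cancel, Units.val_one, mul_one]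
  · rintro _ ⟨w, rfl⟩
    refine ⟨e *ᵥ (((g⁻¹ : GL ι F) : Matrix ι ι F) *ᵥ w), ⟨_, rfl⟩, ?_⟩
    rw [← h]
    simp only [Matrix.toLin'_apply, Matrix.mulVec_mulVec, mul_assoc]

/-- SCb -/
theorem sp_of_isotropic_idempotent [Fintype F] [Nonempty ι] {f : (ι → F) → (ι → F) → F}
    (hf : IsSymplecticForm f) {H : Subgroup (GL ι F)} (hH : FixesForm (matrixSet H) f)
    (e : Matrix ι ι F) (hidem : e * e = e)
    (hadj : ∀ u v, f (e *ᵥ u) v = f u ((1 - e) *ᵥ v))
    (hperm : ∀ h ∈ H, (h : Matrix ι ι F) * e * ((h⁻¹ : GL ι F) : Matrix ι ι F) = e ∨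
      (h : Matrix ι ι F) * e * ((h⁻¹ : GL ι F) : Matrix ι ι F) = 1 - e) : SpCls f H := by
  have hb := hf.bilinear
  have hidem' : (1 - e) * (1 - e) = 1 - e := by
    rw [sub_mul, mul_sub, mul_sub, hidem]; simp
  have hee' : (1 - e) * e = 0 := by rw [sub_mul, hidem]; simp
  have he'e : e * (1 - e) = 0 := by rw [mul_sub, hidem]; simp
  have hsubv : ∀ v : ι → F, (1 - e) *ᵥ v = v - e *ᵥ v := by
    intro v; rw [Matrix.sub_mulVec, Matrix.one_mulVec]
  have hadj' : ∀ u v, f ((1 - e) *ᵥ u) v = f u (e *ᵥ v) := by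
    intro u v
    rw [hsubv, f_sub_left hb, hadj, hsubv, f_sub_right hb]; ring
  by_cases hodd : Odd (Fintype.card F)
  · -- pair of totally singular subspaces
    set W := LinearMap.range (Matrix.toLin' e) with hW
    set P := LinearMap.range (Matrix.toLin' (1 - e)) with hP
    have hWs : IsTotallySingularFor f W := by
      rintro _ ⟨u, rfl⟩ _ ⟨v, rfl⟩
      simp only [Matrix.toLin'_apply]
      rw [hadj, Matrix.mulVec_mulVec, hee', Matrix.zero_mulVec, f_zero_right hb]
    have hPs : IsTotallySingularFor f P := by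
      rintro _ ⟨u, rfl⟩ _ ⟨v, rfl⟩
      simp only [Matrix.toLin'_apply]
      rw [hadj', Matrix.mulVec_mulVec, he'e, Matrix.zero_mulVec, f_zero_right hb]
    have hd : W ⊓ P = ⊥ := by
      rw [eq_bot_iff]
      rintro v ⟨h1, h2⟩
      have h1' := (mem_range_idem hidem).1 h1
      have h2' := (mem_range_idem hidem').1 h2
      rw [Submodule.mem_bot, ← h1', ← h2', Matrix.mulVec_mulVec, he'e, Matrix.zero_mulVec]
    have hs : W ⊔ P = ⊤ := by
      rw [eq_top_iff]
      intro v _
      have : v = e *ᵥ v + (1 - e) *ᵥ v := by rw [hsubv]; abel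
      rw [this]
      exact Submodule.add_mem_sup ⟨v, rfl⟩ ⟨v, rfl⟩
    have hsum : Module.finrank F W + Module.finrank F P = Fintype.card ι := by
      have := Submodule.finrank_sup_add_finrank_inf_eq W P
      rw [hd, hs, finrank_bot, add_zero, finrank_top, Module.finrank_fintype_fun_eq_card] at this
      exact this.symm
    have h1 := two_mul_finrank_le hf hWs
    have h2 := two_mul_finrank_le hf hPs
    have hpos : 0 < Fintype.card ι := Fintype.card_pos
    right; right; right; left
    refine ⟨Module.finrank F W, ![W, P], hodd,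
      isMDecomposition_pair (by omega) (disjoint_iff.2 hd) hs rfl (by omega), ?_, ?_⟩
    · intro i
      fin_cases i
      · exact hWs
      · exact hPs
    · intro g hg
      have hconj' : ∀ e₁ : Matrix ι ι F, (g : Matrix ι ι F) * e * ((g⁻¹ : GL ι F) : Matrix ι ι F) = e₁ →
          (g : Matrix ι ι F) * (1 - e) * ((g⁻¹ : GL ι F) : Matrix ι ι F) = 1 - e₁ := by
        intro e₁ h
        rw [mul_sub, sub_mul, h, mul_one, ← Units.val_mul, mul_inv_cancel, Units.val_one]
      rcases hperm g hg with h | h
      · refine ⟨1, fun i => ?_⟩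
        fin_cases i
        · exact map_range_conj g e e h
        · exact map_range_conj g (1 - e) (1 - e) (hconj' _ h)
      · refine ⟨Equiv.swap 0 1, fun i => ?_⟩
        fin_cases i
        · exact map_range_conj g e (1 - e) h
        · have := map_range_conj g (1 - e) e (by rw [hconj' _ h]; simp)
          exact this
  · -- quadratic form
    have h2 : (2 : F) = 0 := by
      have heven : Even (Fintype.card F) := Nat.not_odd_iff_even.1 hodd
      have hchar : ringChar F = 2 := FiniteField.even_card_iff_char_two.2 (Nat.even_iff.1 heven)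
      haveI : CharP F 2 := ringChar.of_eq hchar
      exact CharTwo.two_eq_zero
    have hneg : ∀ a : F, -a = a := by
      intro a
      have : a + a = 0 := by rw [← two_mul, h2, zero_mul]
      exact neg_eq_of_add_eq_zero_left this
    have hsymm : ∀ u v, f u v = f v u := by
      intro u v; rw [hf.skew, hneg]
    right; right; right; right; right; right; left
    have hpolar : ∀ u v, QuadraticMap.polar (fun v => f (e *ᵥ v) v) u v = f u v := by
      intro u v
      unfold QuadraticMap.polar
      simp only [Matrix.mulVec_add, hb.add_left, hb.add_right]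
      have h1 : f (e *ᵥ v) u = f ((1 - e) *ᵥ u) v := by rw [hadj', hsymm]
      rw [h1, hsubv, f_sub_left hb]
      ring
    have hpolar' : QuadraticMap.polar (fun v => f (e *ᵥ v) v) = f := by
      funext u v; exact hpolar u v
    refine ⟨fun v => f (e *ᵥ v) v, hodd, ⟨?_, ?_, ?_⟩, hpolar, ?_⟩
    · intro c v
      simp only [Matrix.mulVec_smul, hb.smul_left, hb.smul_right]
      ring
    · rw [hpolar']; exact hb
    · rw [hpolar']; exact hf.nondegenerate
    · intro g hg
      refine ⟨1, fun v => ?_⟩
      simp only [Units.val_one, one_mul]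
      rw [fixes_adj hH hg, Matrix.mulVec_mulVec, Matrix.mulVec_mulVec]
      have hg' := hperm g⁻¹ (H.inv_mem hg)
      rw [inv_inv] at hg'
      rcases hg' with h | h
      · rw [h]
      · rw [h, hsubv, f_sub_left hb, hf.alternating, zero_sub, hneg]

end Cfsg.Agent.Lib.Helper2.Sp
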